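import Cfsg.Agent.Chevalley.Data.SysF4
import Cfsg.Agent.F4TwoMult13.Data

/-!
The checker for the certificate of `F₄(2)`.
-/

set_option autoImplicit false

namespace CfsgLib.F4TwoMult13

open Cfsg.Lie

/-- The roots of the commutator of two root elements over the field with two elements. -/
def pcP (a b : ℕ) : List ℕ :=
  let v := (pcTab >>> (16 * (a * 48 + b))) % 65536
  (if v % 256 = 0 then [] else [v % 256 - 1]) ++ (if v / 256 = 0 then [] else [v / 256 - 1])

/-- A pair for which there is a relation. -/
def okPair (a b : ℕ) : Bool := decide (a < 48 ∧ b < 48 ∧ a + b ≠ 47)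

/-- The word replacing a product of two root elements. -/
def rhs (a b : ℕ) : List ℕ := if a = b then [] else b :: a :: pcP b a

/-- One rewriting. -/
def apply1 (i : ℕ) (w : List ℕ) : Option (List ℕ × ℕ) :=
  match w.drop i with
  | a :: b :: rest =>
    if okPair a b then some (w.take i ++ rhs a b ++ rest, a * 48 + b) else none
  | _ => none

/-- A sequence of rewritings, with the relations used. -/
def run : List ℕ → List ℕ → Option (List ℕ × List ℕ)
  | [], w => some (w, [])
  | i :: p, w => (apply1 i w).bind fun x => (run p x.1).map fun y => (y.1, x.2 :: y.2)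

/-- Unpack a list. -/
def unseq : ℕ → ℕ → List ℕ
  | 0, _ => []
  | k + 1, v => if v = 0 then [] else (v % 64 - 1) :: unseq k (v / 64)

/-- The exponent of a tail. -/
def kexp (r : ℕ) : ℤ := if kPlus.testBit r then 1 else if kMinus.testBit r then -1 else 0

/-- Two rewritings of a word with the same result: the relations used, without the common ones. -/
def pairOf (w p q : ℕ) : Option (List ℕ × List ℕ) :=
  match run (unseq 24 p) (unseq 24 w), run (unseq 24 q) (unseq 24 w) with
  | some (u, L), some (v, M) => if u == v then some (L.diff M, M.diff L) else none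
  | _, _ => none

/-- A step determines the tail of `t`. -/
def stepOK (known : ℕ) (s : ℕ × ℕ × ℕ × ℕ) : Bool :=
  match pairOf s.1 s.2.1 s.2.2.1 with
  | some (L, M) => L.all (fun r => known.testBit r || r == s.2.2.2) &&
      M.all (fun r => known.testBit r || r == s.2.2.2) &&
      (L.count s.2.2.2 == M.count s.2.2.2 + 1 || M.count s.2.2.2 == L.count s.2.2.2 + 1) &&
      decide ((L.map kexp).sum = (M.map kexp).sum)
  | none => false

/-- All steps, with the tails known afterwards. -/
def stepsOK : List (ℕ × ℕ × ℕ × ℕ) → ℕ → Option ℕ
  | [], known => some known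
  | s :: l, known => if stepOK known s then stepsOK l (known ||| 1 <<< s.2.2.2) else none

/-- The tails known at the start. -/
def known0 : ℕ :=
  gaugeTab.foldl (fun m x => m ||| 1 <<< (x.1 * 48 + x.2)) (1 <<< epsRule)

/-- The rewritings determine every tail. -/
def certOK : Bool :=
  match stepsOK steps.flatten known0 with
  | some known => (List.range 48).all fun a => (List.range 48).all fun b =>
      !okPair a b || known.testBit (a * 48 + b)
  | none => false

/-- The starting tails have the stated exponents. -/
def startOK : Bool :=
  (gaugeTab.all fun x => kexp (x.1 * 48 + x.2) == 0) && kexp epsRule == 1 &&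
    gaugeTab.length == 48 &&
    (List.range 48).all fun q =>
      let x := gaugeTab.getD q (0, 0)
      okPair x.1 x.2 && !(x.1 == x.2) && pcP x.2 x.1 == [q]

/-- The free tail squares to one. -/
def relOK : Bool :=
  match pairOf relStep.1 relStep.2.1 relStep.2.2 with
  | some (L, M) => decide ((L.map kexp).sum + 2 = (M.map kexp).sum) &&
      (L ++ M).all fun r => okPair (r / 48) (r % 48)
  | none => false

/-- The table is the one of the datum. -/
def tabOK : Bool :=
  (List.range 48).all fun r => chevF4.neg r == 47 - r &&
    (List.range 48).all fun s => r == s || r + s == 47 ||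
      ((chevF4.commTerms r s).all (fun c => decide (0 < c.2.2.1 ∧ 0 < c.2.2.2)) &&
        ((chevF4.commTerms r s).filter fun c => c.2.1 % 2 != 0).map (·.1) == pcP r s)

theorem certOK_eq : certOK = true := by decide +kernel

theorem startOK_eq : startOK = true := by decide +kernel

theorem relOK_eq : relOK = true := by decide +kernel

theorem tabOK_eq : tabOK = true := by decide +kernel

end CfsgLib.F4TwoMult13
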