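import Cfsg.Agent.ChevSteinberg.Data
import Cfsg.Agent.Schur.CentralCommutator
import Cfsg.Agent.F4TwoMult13.Check

/-!
Soundness of the certificate: in a central extension of `F₄(2)` the lifts of root elements can be chosen to
satisfy the commutator relations modulo one central involution.
-/

set_option autoImplicit false

namespace CfsgLib.F4TwoMult13

open Cfsg.Lie CfsgLib.Chevalley CfsgLib.ChevSteinberg
open scoped commutatorElement IsMulCommutative

variable {F : Type*} [Field F] {Γ : Type*} [Group Γ]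

theorem nroots_eq : chevF4.nroots = 48 := rfl

theorem tab_spec {r s : ℕ} (hr : r < 48) (hs : s < 48) (h1 : r ≠ s) (h2 : r + s ≠ 47) :
    (∀ c ∈ chevF4.commTerms r s, 0 < c.2.2.1 ∧ 0 < c.2.2.2) ∧
      ((chevF4.commTerms r s).filter fun c => c.2.1 % 2 != 0).map (·.1) = pcP r s := by
  have h := tabOK_eq
  simp only [tabOK, List.all_eq_true, List.mem_range, Bool.and_eq_true, Bool.or_eq_true,
    beq_iff_eq, decide_eq_true_eq] at h
  rcases (h r hr).2 s hs with (e | e) | e
  · exact absurd e h1
  · exact absurd e h2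
  · exact e

theorem neg_eq {r : ℕ} (hr : r < 48) : chevF4.neg r = 47 - r := by
  have h := tabOK_eq
  simp only [tabOK, List.all_eq_true, List.mem_range, Bool.and_eq_true, beq_iff_eq] at h
  exact (h r hr).1

section TwoField

variable (h2 : ∀ t : F, t = 0 ∨ t = 1)
include h2

theorem two_zero : (1 : F) + 1 = 0 := by
  rcases h2 (1 + 1) with h | h
  · exact h
  · exact absurd (left_eq_add.1 h.symm) one_ne_zero

theorem intCast_two (k : ℤ) : (k : F) = if k % 2 = 0 then 0 else 1 := by
  conv_lhs => rw [← Int.mul_ediv_add_emod k 2]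
  have : (2 : F) = 0 := by rw [← one_add_one_eq_two]; exact two_zero h2
  rcases Int.emod_two_eq_zero_or_one k with h | h <;> simp [h, this]

theorem neg_one_two : (-1 : F) = 1 := by
  rw [neg_eq_iff_add_eq_zero]; exact two_zero h2

/-- The relation between two root elements. -/
theorem xG_rel {a b : ℕ} (h : okPair a b = true) :
    sysF4.xG F a 1 * sysF4.xG F b 1 = ((rhs a b).map fun r => sysF4.xG F r 1).prod := by
  simp only [okPair, decide_eq_true_eq] at h
  obtain ⟨ha, hb, hab⟩ := h
  rw [rhs]
  split_ifs with e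
  · rw [e, sysF4.xG_add, two_zero h2, sysF4.xG_zero, List.map_nil, List.prod_nil]
  · have hc := sysF4.xG_comm F (r := b) (s := a) hb ha e (by rw [neg_eq hb]; omega) 1 1
    have hw : sysF4.wG F (chevF4.commWord F b a 1 1) =
        ((pcP b a).map fun r => sysF4.xG F r 1).prod := by
      rw [← (tab_spec hb ha (fun e' => e e'.symm) (by omega)).2, ChevalleyDatum.commWord, Sys.wG,
        List.map_map, List.map_map]
      induction chevF4.commTerms b a with
      | nil => rfl
      | cons c l ih =>
        by_cases hp : c.2.1 % 2 = 0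
        · rw [List.map_cons, List.prod_cons, ih, List.filter_cons_of_neg (by simp [hp])]
          simp [Function.comp_apply, intCast_two h2, Int.dvd_of_emod_eq_zero hp, sysF4.xG_zero]
        · rw [List.map_cons, List.prod_cons, ih, List.filter_cons_of_pos (by simp [hp]),
            List.map_cons, List.prod_cons]
          simp [Function.comp_apply, intCast_two h2, mt Int.emod_eq_zero_of_dvd hp, neg_one_two h2]
    rw [hw] at hc
    rw [List.map_cons, List.map_cons, List.prod_cons, List.prod_cons, ← hc]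
    group

end TwoField

/-- A central extension of `F₄(2)`. -/
structure CExt (F : Type*) [Field F] (Γ : Type*) [Group Γ] where
  h2 : ∀ t : F, t = 0 ∨ t = 1
  π : Γ →* GL chevF4.Idx F
  range_eq : π.range = chevF4.group F
  central : π.ker ≤ Subgroup.center Γ

namespace CExt

variable (E : CExt F Γ)

/-- Some lift of a root element. -/
noncomputable def X (r : ℕ) : Γ :=
  open Classical in if h : ∃ z, E.π z = sysF4.xG F r 1 then h.choose else 1

theorem π_X {r : ℕ} (hr : r < 48) : E.π (E.X r) = sysF4.xG F r 1 := by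
  have h : ∃ z, E.π z = sysF4.xG F r 1 := by
    have := sysF4.xG_mem F (r := r) hr (1 : F)
    rw [← E.range_eq] at this
    exact this
  rw [X, dif_pos h]
  exact h.choose_spec

/-- The lift defined by a gauge pair. -/
noncomputable def Y (q : ℕ) : Γ :=
  (E.X (gaugeTab.getD q (0, 0)).2 * E.X (gaugeTab.getD q (0, 0)).1)⁻¹ *
    (E.X (gaugeTab.getD q (0, 0)).1 * E.X (gaugeTab.getD q (0, 0)).2)

theorem gauge_spec {q : ℕ} (hq : q < 48) :
    okPair (gaugeTab.getD q (0, 0)).1 (gaugeTab.getD q (0, 0)).2 = true ∧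
      (gaugeTab.getD q (0, 0)).1 ≠ (gaugeTab.getD q (0, 0)).2 ∧
      pcP (gaugeTab.getD q (0, 0)).2 (gaugeTab.getD q (0, 0)).1 = [q] := by
  have h := startOK_eq
  simp only [startOK, Bool.and_eq_true, List.all_eq_true, List.mem_range, beq_iff_eq,
    Bool.not_eq_true', beq_eq_false_iff_ne] at h
  obtain ⟨⟨h1, h2⟩, h3⟩ := h.2 q hq
  exact ⟨h1, h2, h3⟩

theorem π_Y {q : ℕ} (hq : q < 48) : E.π (E.Y q) = sysF4.xG F q 1 := by
  obtain ⟨h, hne, hp⟩ := gauge_spec hq
  have hr := xG_rel E.h2 h
  rw [rhs, if_neg hne, hp] at hr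
  simp only [okPair, decide_eq_true_eq] at h
  rw [Y, map_mul, map_inv, map_mul, map_mul, E.π_X h.1, E.π_X h.2.1, hr]
  simp [mul_assoc]

/-- The product of the lifts along a word. -/
noncomputable def ev (w : List ℕ) : Γ := (w.map E.Y).prod

theorem ev_append (u v : List ℕ) : E.ev (u ++ v) = E.ev u * E.ev v := by simp [ev]

theorem pcP_lt {a b : ℕ} (ha : a < 48) (hb : b < 48) (h1 : a ≠ b) (h2 : a + b ≠ 47) {r : ℕ}
    (hr : r ∈ pcP a b) : r < 48 := by
  rw [← (tab_spec ha hb h1 h2).2, List.mem_map] at hr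
  obtain ⟨c, hc, rfl⟩ := hr
  exact sysF4.commTerms_lt ha hb (List.mem_filter.1 hc).1

theorem rhs_lt {a b : ℕ} (h : okPair a b = true) : ∀ r ∈ rhs a b, r < 48 := by
  simp only [okPair, decide_eq_true_eq] at h
  intro r hr
  rw [rhs] at hr
  split_ifs at hr with e
  · simp at hr
  · rcases List.mem_cons.1 hr with rfl | hr
    · exact h.2.1
    rcases List.mem_cons.1 hr with rfl | hr
    · exact h.1
    exact pcP_lt h.2.1 h.1 (fun e' => e e'.symm) (by omega) hr

/-- The tail of a relation, as a central element. -/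
noncomputable def e (k : ℕ) : ↥(Subgroup.center Γ) :=
  open Classical in
    if h : (E.ev (rhs (k / 48) (k % 48)))⁻¹ * (E.Y (k / 48) * E.Y (k % 48)) ∈ Subgroup.center Γ
    then ⟨_, h⟩ else 1

theorem code_div {a b : ℕ} (hb : b < 48) : (a * 48 + b) / 48 = a ∧ (a * 48 + b) % 48 = b := by
  omega

theorem rule {a b : ℕ} (h : okPair a b = true) :
    E.Y a * E.Y b = E.ev (rhs a b) * E.e (a * 48 + b) ∧ (E.e (a * 48 + b) : Γ) ∈ E.π.ker := by
  have h' := h
  simp only [okPair, decide_eq_true_eq] at h'
  have hk : (E.ev (rhs a b))⁻¹ * (E.Y a * E.Y b) ∈ E.π.ker := by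
    rw [MonoidHom.mem_ker, map_mul, map_inv, map_mul, E.π_Y h'.1, E.π_Y h'.2.1, xG_rel E.h2 h,
      ev, map_list_prod, List.map_map, List.map_congr_left (f := ⇑E.π ∘ E.Y)
        (g := fun r => sysF4.xG F r 1) fun r hr => E.π_Y (rhs_lt h r hr), inv_mul_cancel]
  rw [e, (code_div h'.2.1).1, (code_div h'.2.1).2, dif_pos (E.central hk)]
  exact ⟨by simp, hk⟩

theorem e_gauge {q : ℕ} (hq : q < 48) :
    E.e ((gaugeTab.getD q (0, 0)).1 * 48 + (gaugeTab.getD q (0, 0)).2) = 1 := by
  obtain ⟨h, hne, hp⟩ := gauge_spec hq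
  have hr := (E.rule h).1
  rw [rhs, if_neg hne, hp] at hr
  simp only [okPair, decide_eq_true_eq] at h
  have key : ∀ (g g' k k' : Γ), E.π g = E.π g' → E.π k = E.π k' →
      (k * g)⁻¹ * (g * k) = (k' * g')⁻¹ * (g' * k') := by
    intro g g' k k' h1 h2
    have e1 : (k * g)⁻¹ * (g * k) = ⁅g⁻¹, k⁻¹⁆ := by simp only [commutatorElement_def]; group
    have e2 : (k' * g')⁻¹ * (g' * k') = ⁅g'⁻¹, k'⁻¹⁆ := by simp only [commutatorElement_def]; group
    rw [e1, e2]
    exact Schur.commutator_congr E.central (by rw [map_inv, map_inv, h1])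
      (by rw [map_inv, map_inv, h2])
  simp only [ev, List.map_cons, List.map_nil, List.prod_cons, List.prod_nil, mul_one] at hr
  have hY := key (E.X _) (E.Y (gaugeTab.getD q (0, 0)).1) (E.X _) (E.Y (gaugeTab.getD q (0, 0)).2)
    ((E.π_X h.1).trans (E.π_Y h.1).symm) ((E.π_X h.2.1).trans (E.π_Y h.2.1).symm)
  rw [show E.Y q = (E.X (gaugeTab.getD q (0, 0)).2 * E.X (gaugeTab.getD q (0, 0)).1)⁻¹ *
    (E.X (gaugeTab.getD q (0, 0)).1 * E.X (gaugeTab.getD q (0, 0)).2) from rfl, hY] at hr
  refine Subtype.ext ?_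
  simp only [OneMemClass.coe_one]
  rw [← mul_assoc, mul_inv_cancel_left] at hr
  exact left_eq_mul.1 hr

theorem apply1_spec {i : ℕ} {w w' : List ℕ} {k : ℕ} (h : apply1 i w = some (w', k)) :
    E.ev w = E.ev w' * E.e k := by
  unfold apply1 at h
  split at h
  · next a b rest hd =>
    split_ifs at h with hok
    obtain ⟨rfl, rfl⟩ : _ = w' ∧ _ = k := by simpa using h
    have hw : w = w.take i ++ (a :: b :: rest) := by rw [← hd, List.take_append_drop]
    have hz : ∀ g : Γ, g * E.e (a * 48 + b) = E.e (a * 48 + b) * g :=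
      Subgroup.mem_center_iff.1 (E.e (a * 48 + b)).2
    conv_lhs => rw [hw]
    rw [E.ev_append, E.ev_append, E.ev_append]
    simp only [ev, List.map_cons, List.prod_cons]
    rw [← mul_assoc (E.Y a), (E.rule hok).1, ev, mul_assoc _ (E.e _ : Γ), ← hz]
    simp only [mul_assoc]
  · simp at h

theorem run_spec : ∀ (p w w' L : List ℕ), run p w = some (w', L) →
    E.ev w = E.ev w' * ((L.map E.e).prod : ↥(Subgroup.center Γ))
  | [], w, w', L, h => by
    obtain ⟨rfl, rfl⟩ : w = w' ∧ [] = L := by simpa [run] using h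
    simp
  | i :: p, w, w', L, h => by
    simp only [run, Option.bind_eq_some_iff, Option.map_eq_some_iff] at h
    obtain ⟨⟨w₁, k⟩, h1, ⟨w₂, L₂⟩, h2, h3⟩ := h
    obtain ⟨rfl, rfl⟩ : w₂ = w' ∧ k :: L₂ = L := by simpa using h3
    rw [E.apply1_spec h1, run_spec p _ _ _ h2, List.map_cons, List.prod_cons, Subgroup.coe_mul,
      mul_assoc]
    congr 1
    exact (Subgroup.mem_center_iff.1 (E.e k).2 _)

theorem pairOf_spec {w p q : ℕ} {L M : List ℕ} (h : pairOf w p q = some (L, M)) :
    (L.map E.e).prod = (M.map E.e).prod := by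
  unfold pairOf at h
  split at h
  · next u L₁ v M₁ h1 h2 =>
    split_ifs at h with huv
    obtain rfl : u = v := by simpa using huv
    obtain ⟨rfl, rfl⟩ : L₁.diff M₁ = L ∧ M₁.diff L₁ = M := by simpa using h
    have := (E.run_spec _ _ _ _ h1).symm.trans (E.run_spec _ _ _ _ h2)
    have h3 : (L₁.map E.e).prod = (M₁.map E.e).prod := Subtype.ext (mul_left_cancel this)
    have hL : (((L₁ : Multiset ℕ) - M₁).map E.e).prod * (((L₁ : Multiset ℕ) ∩ M₁).map E.e).prod =
        ((L₁ : Multiset ℕ).map E.e).prod := by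
      rw [← Multiset.prod_add, ← Multiset.map_add, Multiset.sub_add_inter]
    have hM : (((M₁ : Multiset ℕ) - L₁).map E.e).prod * (((M₁ : Multiset ℕ) ∩ L₁).map E.e).prod =
        ((M₁ : Multiset ℕ).map E.e).prod := by
      rw [← Multiset.prod_add, ← Multiset.map_add, Multiset.sub_add_inter]
    rw [Multiset.inter_comm (M₁ : Multiset ℕ)] at hM
    simp only [Multiset.coe_sub, Multiset.map_coe, Multiset.prod_coe] at hL hM
    exact mul_right_cancel (hL.trans (h3.trans hM.symm))
  · simp at h

/-- The free tail. -/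
noncomputable def ε : ↥(Subgroup.center Γ) := E.e epsRule

/-- A tail without its power of the free one. -/
noncomputable def f (k : ℕ) : ↥(Subgroup.center Γ) := E.e k * (E.ε ^ kexp k)⁻¹

theorem prod_e (L : List ℕ) :
    (L.map E.e).prod = (L.map E.f).prod * E.ε ^ (L.map kexp).sum := by
  induction L with
  | nil => simp
  | cons k L ih =>
    rw [List.map_cons, List.map_cons, List.map_cons, List.prod_cons, List.prod_cons, List.sum_cons,
      ih, zpow_add, f]
    rw [mul_mul_mul_comm, inv_mul_cancel_right]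

/-- The tails of the known rules are powers of the free one. -/
def Known (m : ℕ) : Prop := ∀ k, m.testBit k = true → E.f k = 1

theorem prod_f {m t : ℕ} (hm : E.Known m) : ∀ L : List ℕ,
    (L.all fun r => m.testBit r || r == t) = true → (L.map E.f).prod = E.f t ^ L.count t
  | [], _ => by simp
  | k :: L, h => by
    simp only [List.all_cons, Bool.and_eq_true, Bool.or_eq_true, beq_iff_eq] at h
    rw [List.map_cons, List.prod_cons, prod_f hm L h.2]
    by_cases e : k = t
    · rw [e, List.count_cons_self, pow_succ']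
    · rw [List.count_cons_of_ne e, hm k (h.1.resolve_right e), one_mul]

theorem step_spec {m : ℕ} (hm : E.Known m) {s : ℕ × ℕ × ℕ × ℕ} (h : stepOK m s = true) :
    E.Known (m ||| 1 <<< s.2.2.2) := by
  unfold stepOK at h
  split at h
  · next L M hp =>
    simp only [Bool.and_eq_true, decide_eq_true_eq, Bool.or_eq_true (_ == _), beq_iff_eq] at h
    obtain ⟨⟨⟨hL, hM⟩, hc⟩, hs⟩ := h
    have := E.pairOf_spec hp
    rw [E.prod_e, E.prod_e, hs, mul_left_inj, E.prod_f hm L hL, E.prod_f hm M hM] at this
    have ht : E.f s.2.2.2 = 1 := by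
      rcases hc with e | e
      · rwa [e, pow_succ, mul_eq_left] at this
      · rw [e, pow_succ] at this
        exact mul_eq_left.1 this.symm
    intro k hk
    rw [Nat.testBit_or, Bool.or_eq_true, Nat.one_shiftLeft, Nat.testBit_two_pow] at hk
    rcases hk with hk | hk
    · exact hm k hk
    · rw [← of_decide_eq_true hk]; exact ht
  · simp at h

theorem steps_spec : ∀ (l : List (ℕ × ℕ × ℕ × ℕ)) (m m' : ℕ), E.Known m →
    stepsOK l m = some m' → E.Known m'
  | [], m, m', hm, h => by
    obtain rfl : m = m' := by simpa [stepsOK] using h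
    exact hm
  | s :: l, m, m', hm, h => by
    rw [stepsOK] at h
    split_ifs at h with hs
    exact steps_spec l _ _ (E.step_spec hm hs) h

theorem known_start : E.Known known0 := by
  have h := startOK_eq
  simp only [startOK, Bool.and_eq_true, List.all_eq_true, List.mem_range, beq_iff_eq] at h
  obtain ⟨⟨⟨hg, he⟩, hlen⟩, -⟩ := h
  have hfold : ∀ (l : List (ℕ × ℕ)) (m : ℕ), E.Known m →
      (∀ x ∈ l, E.f (x.1 * 48 + x.2) = 1) →
      E.Known (l.foldl (fun m x => m ||| 1 <<< (x.1 * 48 + x.2)) m) := by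
    intro l
    induction l with
    | nil => exact fun m hm _ => hm
    | cons x l ih =>
      intro m hm hx
      refine ih _ (fun k hk => ?_) fun y hy => hx y (List.mem_cons_of_mem _ hy)
      rw [Nat.testBit_or, Bool.or_eq_true, Nat.one_shiftLeft, Nat.testBit_two_pow] at hk
      rcases hk with hk | hk
      · exact hm k hk
      · rw [← of_decide_eq_true hk]; exact hx x List.mem_cons_self
  refine hfold _ _ (fun k hk => ?_) fun x hx => ?_
  · rw [Nat.one_shiftLeft, Nat.testBit_two_pow] at hk
    rw [← of_decide_eq_true hk, f, he, zpow_one, ε, mul_inv_cancel]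
  · obtain ⟨i, hi, rfl⟩ := List.getElem_of_mem hx
    have := E.e_gauge (q := i) (by omega)
    rw [List.getD_eq_getElem _ _ hi] at this
    rw [f, this, hg _ hx, zpow_zero, inv_one, mul_one]

theorem e_eq {a b : ℕ} (h : okPair a b = true) :
    E.e (a * 48 + b) = E.ε ^ kexp (a * 48 + b) := by
  have h' := h
  simp only [okPair, decide_eq_true_eq] at h'
  have hc := certOK_eq
  unfold certOK at hc
  split at hc
  · next m hm =>
    have := E.steps_spec _ _ _ E.known_start hm
    simp only [List.all_eq_true, List.mem_range, Bool.or_eq_true, Bool.not_eq_true'] at hc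
    rcases hc a h'.1 b h'.2.1 with e | e
    · rw [h] at e; cases e
    · exact mul_inv_eq_one.1 (this _ e)
  · simp at hc

theorem eps_sq : E.ε * E.ε = 1 := by
  have h := relOK_eq
  unfold relOK at h
  split at h
  · next L M hp =>
    simp only [Bool.and_eq_true, decide_eq_true_eq, List.all_eq_true, List.mem_append] at h
    have hl : ∀ K : List ℕ, (∀ r ∈ K, okPair (r / 48) (r % 48) = true) →
        (K.map E.e).prod = E.ε ^ (K.map kexp).sum := by
      intro K hK
      induction K with
      | nil => simp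
      | cons k K ih =>
        rw [List.map_cons, List.map_cons, List.prod_cons, List.sum_cons,
          ih fun r hr => hK r (List.mem_cons_of_mem _ hr), zpow_add]
        congr 1
        have := E.e_eq (hK k List.mem_cons_self)
        rwa [Nat.div_add_mod' k 48] at this
    have := E.pairOf_spec hp
    rw [hl L fun r hr => h.2 r (Or.inl hr), hl M fun r hr => h.2 r (Or.inr hr), ← h.1,
      zpow_add, left_eq_mul, zpow_two] at this
    exact this
  · simp at h

theorem eps_mem : (E.ε : Γ) ∈ E.π.ker := by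
  have hok : okPair (epsRule / 48) (epsRule % 48) = true := by decide +kernel
  have := (E.rule hok).2
  rwa [Nat.div_add_mod' epsRule 48] at this

end CExt

end CfsgLib.F4TwoMult13
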