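import Cfsg.Prelude.Def_KGroupFacts
import Cfsg.Agent.ChevSteinberg.TorusHom
import Cfsg.Agent.ChevSteinberg.CenterData
import Cfsg.Agent.F4TwoMult13.Sound

/-!
The kernel of a stem extension of `F₄(2)` has order at most two.
-/

set_option autoImplicit false

namespace CfsgLib.F4TwoMult13

open Cfsg.Lie CfsgLib.Chevalley CfsgLib.ChevSteinberg
open scoped commutatorElement

variable {F : Type*} [Field F] {Γ : Type*} [Group Γ]

theorem two_elements [Fintype F] (hF : Fintype.card F = 2) : ∀ t : F, t = 0 ∨ t = 1 := by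
  classical
  intro t
  have h : (Finset.univ : Finset F) = {0, 1} :=
    (Finset.eq_univ_of_card _ (by rw [Finset.card_pair zero_ne_one, hF])).symm
  simpa [h] using Finset.mem_univ t

namespace CExt

variable (E : CExt F Γ)

/-- The group generated by the free tail. -/
noncomputable def epsGrp : Subgroup Γ := Subgroup.zpowers (E.ε : Γ)

theorem epsGrp_le : E.epsGrp ≤ E.π.ker := Subgroup.zpowers_le.2 E.eps_mem

instance : E.epsGrp.Normal where
  conj_mem n hn g := by
    have := Subgroup.mem_center_iff.1 (E.central (E.epsGrp_le hn)) g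
    rwa [this, mul_inv_cancel_right]

/-- The lifts modulo the free tail. -/
noncomputable def yq (r : ℕ) (t : F) : Γ ⧸ E.epsGrp :=
  open Classical in if r < 48 ∧ t ≠ 0 then (E.Y r : Γ ⧸ E.epsGrp) else 1

/-- The projection from the quotient. -/
noncomputable def πq : Γ ⧸ E.epsGrp →* GL chevF4.Idx F :=
  QuotientGroup.lift E.epsGrp E.π E.epsGrp_le

theorem yq_one {r : ℕ} (hr : r < 48) : E.yq r 1 = (E.Y r : Γ ⧸ E.epsGrp) := by simp [yq, hr]

theorem yq_zero (r : ℕ) : E.yq r 0 = 1 := by simp [yq]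

theorem e_mem {a b : ℕ} (h : okPair a b = true) : ((E.e (a * 48 + b) : Γ) : Γ ⧸ E.epsGrp) = 1 := by
  rw [QuotientGroup.eq_one_iff, E.e_eq h, Subgroup.coe_zpow]
  exact Subgroup.zpow_mem_zpowers _ _

theorem rule_q {a b : ℕ} (h : okPair a b = true) :
    E.yq a 1 * E.yq b 1 = ((rhs a b).map fun r => E.yq r 1).prod := by
  have h' := h
  simp only [okPair, decide_eq_true_eq] at h'
  rw [E.yq_one h'.1, E.yq_one h'.2.1, ← QuotientGroup.mk_mul, (E.rule h).1, QuotientGroup.mk_mul,
    E.e_mem h, mul_one, ev, ← QuotientGroup.mk'_apply, map_list_prod, List.map_map]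
  exact congrArg List.prod (List.map_congr_left fun r hr => (E.yq_one (rhs_lt h r hr)).symm)

theorem comm_one {r s : ℕ} (hr : r < 48) (hs : s < 48) (h1 : s ≠ r) (h2 : r + s ≠ 47) :
    (E.yq r 1)⁻¹ * E.yq s 1 * E.yq r 1 =
      E.yq s 1 * ((chevF4.commWord F r s 1 1).map fun p => E.yq p.1 p.2).prod := by
  have hok : okPair s r = true := by simp [okPair]; omega
  have hw : ((chevF4.commWord F r s 1 1).map fun p => E.yq p.1 p.2).prod =
      ((pcP r s).map fun q => E.yq q 1).prod := by
    rw [← (tab_spec hr hs (Ne.symm h1) h2).2, ChevalleyDatum.commWord, List.map_map, List.map_map]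
    induction chevF4.commTerms r s with
    | nil => rfl
    | cons c l ih =>
      by_cases hp : c.2.1 % 2 = 0
      · rw [List.map_cons, List.prod_cons, ih, List.filter_cons_of_neg (by simp [hp])]
        simp [Function.comp_apply, intCast_two E.h2, Int.dvd_of_emod_eq_zero hp, E.yq_zero]
      · rw [List.map_cons, List.prod_cons, ih, List.filter_cons_of_pos (by simp [hp]),
          List.map_cons, List.prod_cons]
        simp [Function.comp_apply, intCast_two E.h2, mt Int.emod_eq_zero_of_dvd hp,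
          neg_one_two E.h2]
  have hr2 := E.rule_q hok
  rw [rhs, if_neg h1, List.map_cons, List.map_cons, List.prod_cons, List.prod_cons] at hr2
  rw [hw, mul_assoc, hr2, inv_mul_cancel_left]

/-- The system of the lifts. -/
noncomputable def stSys : StSys sysF4 F (Γ ⧸ E.epsGrp) where
  y := E.yq
  θ := E.πq
  out r hr t := by simp [yq, show ¬ r < 48 from hr]
  add r t u := by
    rcases E.h2 t with rfl | rfl
    · rw [zero_add, E.yq_zero, one_mul]
    rcases E.h2 u with rfl | rfl
    · rw [add_zero, E.yq_zero, mul_one]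
    rw [two_zero E.h2, E.yq_zero]
    by_cases hr : r < 48
    · have := E.rule_q (a := r) (b := r) (by simp [okPair]; omega)
      simpa [rhs] using this
    · simp [yq, hr]
  comm r hr s hs h1 h2 t u := by
    have hne : r + s ≠ 47 := fun e => h2 (by rw [neg_eq hr]; omega)
    have hpos := (tab_spec hr hs (Ne.symm h1) hne).1
    have hnil : ∀ (t u : F), (t = 0 ∨ u = 0) →
        ((chevF4.commWord F r s t u).map fun p => E.yq p.1 p.2).prod = 1 := by
      intro t u htu
      refine List.prod_eq_one fun g hg => ?_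
      simp only [ChevalleyDatum.commWord, List.map_map, List.mem_map, Function.comp_apply] at hg
      obtain ⟨c, hc, rfl⟩ := hg
      obtain ⟨hi, hj⟩ := hpos c hc
      rcases htu with rfl | rfl
      · simp [E.yq_zero, zero_pow hi.ne']
      · simp [E.yq_zero, zero_pow hj.ne']
    rcases E.h2 t with rfl | rfl
    · rw [hnil 0 u (Or.inl rfl), E.yq_zero]; simp
    rcases E.h2 u with rfl | rfl
    · rw [hnil 1 0 (Or.inr rfl), E.yq_zero]; simp
    exact E.comm_one hr hs h1 hne
  θ_y r t := by
    by_cases hr : r < 48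
    · rcases E.h2 t with rfl | rfl
      · rw [E.yq_zero, map_one, sysF4.xG_zero]
      · rw [E.yq_one hr]; exact E.π_Y hr
    · rw [yq, if_neg (fun h => hr h.1), map_one]
      exact Units.ext (by rw [Units.val_one, sysF4.xG_val, x_out (show ¬ r < chevF4.nroots from hr)])

theorem gen (hle : E.π.ker ≤ commutator Γ) :
    Subgroup.closure {g | ∃ r < 48, g = E.Y r} = ⊤ := by
  set K := Subgroup.closure {g | ∃ r < 48, g = E.Y r}
  have hgrp : chevF4.group F ≤ K.map E.π := by
    rw [sysF4.group_eq]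
    refine (Subgroup.closure_le _).2 ?_
    rintro _ ⟨r, hr, t, rfl⟩
    rcases E.h2 t with rfl | rfl
    · rw [sysF4.xG_zero]; exact one_mem _
    · exact ⟨E.Y r, Subgroup.subset_closure ⟨r, hr, rfl⟩, E.π_Y hr⟩
  have hY : ∀ r, E.Y r ∈ commutator Γ := fun r => by
    rw [Y, show ∀ a b : Γ, (b * a)⁻¹ * (a * b) = ⁅a⁻¹, b⁻¹⁆ from fun a b => by
      simp only [commutatorElement_def]; group]
    exact Subgroup.commutator_mem_commutator (Subgroup.mem_top _) (Subgroup.mem_top _)
  have hsplit : ∀ g : Γ, ∃ k ∈ K, ∃ z ∈ E.π.ker, g = k * z := fun g => by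
    obtain ⟨k, hk, e⟩ := hgrp (show E.π g ∈ chevF4.group F by rw [← E.range_eq]; exact ⟨g, rfl⟩)
    exact ⟨k, hk, k⁻¹ * g, by rw [MonoidHom.mem_ker, map_mul, map_inv, e, inv_mul_cancel], by group⟩
  have htop : commutator Γ = ⊤ := by
    rw [eq_top_iff]
    intro g _
    obtain ⟨k, hk, z, hz, rfl⟩ := hsplit g
    refine mul_mem ((Subgroup.closure_le _).2 ?_ hk) (hle hz)
    rintro _ ⟨r, -, rfl⟩
    exact hY r
  rw [eq_top_iff, ← htop, commutator_def, Subgroup.commutator_le]
  intro a _ b _
  obtain ⟨k, hk, z, hz, rfl⟩ := hsplit a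
  obtain ⟨k', hk', z', hz', rfl⟩ := hsplit b
  rw [Schur.commutator_congr E.central (g' := k) (h' := k')
    (by rw [map_mul, (hz : E.π z = 1), mul_one]) (by rw [map_mul, (hz' : E.π z' = 1), mul_one])]
  exact K.mul_mem (K.mul_mem (K.mul_mem hk hk') (K.inv_mem hk)) (K.inv_mem hk')

theorem ker_le_epsGrp (hle : E.π.ker ≤ commutator Γ) : E.π.ker ≤ E.epsGrp := by
  have hgen : Subgroup.closure {g | ∃ r < chevF4.nroots, ∃ t, g = E.stSys.y r t} = ⊤ := by
    rw [eq_top_iff, ← MonoidHom.range_eq_top.2 (QuotientGroup.mk'_surjective E.epsGrp),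
      MonoidHom.range_eq_map, ← E.gen hle, MonoidHom.map_closure]
    refine Subgroup.closure_mono ?_
    rintro _ ⟨_, ⟨r, hr, rfl⟩, rfl⟩
    exact ⟨r, hr, 1, (E.yq_one hr).symm⟩
  have hmul : E.stSys.MulH := fun i t u ht hu => by
    rw [(E.h2 t).resolve_left ht, (E.h2 u).resolve_left hu, mul_one, StSys.hT_one, one_mul]
  have hker : E.stSys.θ.ker = ⊥ := by
    rw [E.stSys.ker_eq_map hmul witness_F4 hgen, ker_torF_F4, Subgroup.map_bot]
  intro z hz
  rw [← QuotientGroup.eq_one_iff]
  have : (z : Γ ⧸ E.epsGrp) ∈ E.stSys.θ.ker := hz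
  rwa [hker, Subgroup.mem_bot] at this

theorem eq_one_or_eps (hle : E.π.ker ≤ commutator Γ) {z : Γ} (hz : z ∈ E.π.ker) :
    z = 1 ∨ z = (E.ε : Γ) := by
  obtain ⟨k, rfl⟩ := Subgroup.mem_zpowers_iff.1 (E.ker_le_epsGrp hle hz)
  have h2 : ((E.ε : Γ)) ^ (2 : ℤ) = 1 := by
    rw [zpow_two]; exact congrArg Subtype.val E.eps_sq
  rw [← Int.mul_ediv_add_emod k 2, zpow_add, zpow_mul, h2, one_zpow, one_mul]
  rcases Int.emod_two_eq_zero_or_one k with h | h <;> simp [h]

end CExt

/-- The kernel of a stem extension of `F₄(2)` is an image of the group of order two. -/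
theorem exists_surjective_ker [Fintype F] (hF : Fintype.card F = 2)
    (σ : Γ →* ↥(chevF4.group F)) (hσ : Cfsg.IsStemExtension σ) :
    ∃ π : Multiplicative (ZMod 2) →* σ.ker, Function.Surjective π := by
  obtain ⟨hs, hc, hle⟩ := hσ
  let π := (chevF4.group F).subtype.comp σ
  have hπ : π.ker = σ.ker := MonoidHom.ker_comp_of_injective σ _ (chevF4.group F).subtype_injective
  let E : CExt F Γ :=
    { h2 := two_elements hF
      π := π
      range_eq := by
        rw [MonoidHom.range_comp, MonoidHom.range_eq_top.mpr hs, ← MonoidHom.range_eq_map,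
          Subgroup.range_subtype]
      central := hπ ▸ hc }
  let e : ↥σ.ker := ⟨(E.ε : Γ), hπ ▸ E.eps_mem⟩
  have he : e ^ 2 = 1 := Subtype.ext ((pow_two _).trans (congrArg Subtype.val E.eps_sq))
  refine ⟨MonoidHom.mk' (fun x => e ^ (Multiplicative.toAdd x).val) ?_, fun z => ?_⟩
  · intro x y
    rw [← pow_add, toAdd_mul, ZMod.val_add]
    conv_rhs => rw [← Nat.mod_add_div ((Multiplicative.toAdd x).val + (Multiplicative.toAdd y).val) 2,
      pow_add, pow_mul, he, one_pow, mul_one]
  · rcases E.eq_one_or_eps (by rw [hπ]; exact hle) (z := z) (by rw [hπ]; exact z.2) with h | h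
    · exact ⟨1, Subtype.ext (by simp [h])⟩
    · refine ⟨Multiplicative.ofAdd 1, Subtype.ext ?_⟩
      simp [h, e, ZMod.val_one]

end CfsgLib.F4TwoMult13
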